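import Cfsg.Agent.Lib.TitsMult.Elements
import Cfsg.Agent.Lib.SchurMult.Reduce
import Cfsg.Agent.Lib.SchurMult.SmallSylow

/-! The multiplier of the Tits group is trivial. -/

set_option autoImplicit false
set_option maxRecDepth 100000

namespace CfsgLib.TitsMult

open CfsgLib.SchurMult CfsgLib.SchurMult.PermCert

theorem colT_table : colT.tableOK = true := by decide +kernel

theorem colT_solved : colT.solvedOK = true := by decide +kernel

theorem two_ok : tTables.twoOK colT ptsT orderT = true := by decide +kernel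

/-- Relations of an extraspecial subgroup and two normalising elements. -/
def rels3 : List (List ℕ × List ℕ) :=
  [([13, 14], [15, 14, 13]), (Tables.rep 13 3, []), (Tables.rep 14 3, []), (Tables.rep 15 3, []),
    ([13, 15], [15, 13]), ([14, 15], [15, 14]),
    ([16, 13], Tables.rep 13 1 ++ Tables.rep 15 0 ++ [16]), ([16, 15], Tables.rep 13 0 ++ Tables.rep 15 2 ++ [16]),
    ([17, 14], Tables.rep 14 1 ++ Tables.rep 15 2 ++ [17]), ([17, 15], Tables.rep 14 0 ++ Tables.rep 15 2 ++ [17])]

/-- Relations of an elementary abelian subgroup and a normalising element. -/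
def rels5 : List (List ℕ × List ℕ) :=
  [([18, 19], [19, 18]), (Tables.rep 18 5, []), (Tables.rep 19 5, []),
    ([20, 18], Tables.rep 18 4 ++ Tables.rep 19 3 ++ [20]), ([20, 19], Tables.rep 18 1 ++ Tables.rep 19 3 ++ [20])]

theorem rels3_ok : rels3.all (fun r => tTables.sameWord r.1 r.2) = true := by decide +kernel

theorem rels5_ok : rels5.all (fun r => tTables.sameWord r.1 r.2) = true := by decide +kernel

theorem z_ne : (List.range 1755).all (fun u => tTables.img 15 u == u) = false := by decide +kernel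

theorem keys_ok :
    (tTables.keysIncr pts3 words3 = true ∧ words3.length = 3 ^ 3 ∧
      (∀ w ∈ words3, ∀ i ∈ w, i = 13 ∨ i = 14) ∧ ∀ q ∈ pts3, q < 1755) ∧
    (tTables.keysIncr pts5 words5 = true ∧ words5.length = 5 ^ 2 ∧
      (∀ w ∈ words5, ∀ i ∈ w, i = 18 ∨ i = 19) ∧ ∀ q ∈ pts5, q < 1755) := by decide +kernel

theorem hasCyclicSchurMultiplier_tits : Cfsg.HasCyclicSchurMultiplier Cfsg.Lie.TitsGroup 1 := by
  have hcard : Nat.card Cfsg.Lie.TitsGroup = 17971200 := CfsgLib.Twisted.Tits.card_commutator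
  haveI : Finite Cfsg.Lie.TitsGroup := Nat.finite_of_card_ne_zero (by rw [hcard]; norm_num)
  have hR := realises
  refine hasCyclicSchurMultiplier_one_of_primes fun p hp hpd Γ _ _ τ hτ => ?_
  rw [hcard] at hpd
  have hpd' : p ∣ 2 ^ 11 * 3 ^ 3 * 5 ^ 2 * 13 := by norm_num; exact hpd
  simp only [hp.dvd_mul] at hpd'
  obtain ⟨w3, w5⟩ := keys_ok
  rcases hpd' with ((h | h) | h) | h
  · obtain rfl := (Nat.prime_dvd_prime_iff_eq hp Nat.prime_two).1 (hp.dvd_of_dvd_pow h)
    exact hR.not_two_dvd two_ok colT_table colT_solved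
      ⟨8775, by norm_num, by rw [hcard]; rfl⟩ Γ τ hτ
  · obtain rfl := (Nat.prime_dvd_prime_iff_eq hp Nat.prime_three).1 (hp.dvd_of_dvd_pow h)
    have hok := rels3_ok
    simp only [rels3, List.all_cons, List.all_nil, Bool.and_eq_true, and_true] at hok
    obtain ⟨e1, ex, ey, ez, exz, eyz, egx, egz, ehy, ehz⟩ := hok
    replace e1 := hR.eq_of_sameWord e1
    replace ex := hR.eq_of_sameWord ex
    replace ey := hR.eq_of_sameWord ey
    replace ez := hR.eq_of_sameWord ez
    replace exz := hR.eq_of_sameWord exz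
    replace eyz := hR.eq_of_sameWord eyz
    replace egx := hR.eq_of_sameWord egx
    replace egz := hR.eq_of_sameWord egz
    replace ehy := hR.eq_of_sameWord ehy
    replace ehz := hR.eq_of_sameWord ehz
    simp only [lprod_append, Tables.lprod_rep, lprod, mul_one] at e1 ex ey ez exz eyz egx egz ehy ehz
    have hzc : tElt 13 * tElt 14 * (tElt 13)⁻¹ * (tElt 14)⁻¹ = tElt 15 := by rw [e1]; group
    refine OddSylow.not_dvd_of_extraspecial hτ hp hzc ex ey ?_ exz eyz
      (mul_inv_eq_iff_eq_mul.2 egx) (mul_inv_eq_iff_eq_mul.2 egz) (by norm_num)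
      (mul_inv_eq_iff_eq_mul.2 ehy) (mul_inv_eq_iff_eq_mul.2 ehz) (by norm_num) ?_
    · intro h1
      have hz := z_ne
      rw [← Bool.not_eq_true] at hz
      refine hz ?_
      simp only [List.all_eq_true, List.mem_range, beq_iff_eq]
      intro u hu
      rw [← tHom_tElt (by norm_num) ⟨u, hu⟩, h1, map_one]
      rfl
    · exact hR.not_dvd_index hp w3.2.2.2 w3.1 w3.2.1 w3.2.2.1 (m := 665600)
        (by rw [hcard]; norm_num) (by norm_num) (Tables.natCard_closure_le_cube hp.pos ex ey ez hzc exz eyz)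
  · obtain rfl := (Nat.prime_dvd_prime_iff_eq hp Nat.prime_five).1 (hp.dvd_of_dvd_pow h)
    have hok := rels5_ok
    simp only [rels5, List.all_cons, List.all_nil, Bool.and_eq_true, and_true] at hok
    obtain ⟨e1, ex, ey, egx, egy⟩ := hok
    replace e1 := hR.eq_of_sameWord e1
    replace ex := hR.eq_of_sameWord ex
    replace ey := hR.eq_of_sameWord ey
    replace egx := hR.eq_of_sameWord egx
    replace egy := hR.eq_of_sameWord egy
    simp only [lprod_append, Tables.lprod_rep, lprod, mul_one] at e1 ex ey egx egy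
    exact OddSylow.not_dvd_of_square hτ hp e1 ex (mul_inv_eq_iff_eq_mul.2 egx)
      (mul_inv_eq_iff_eq_mul.2 egy) (by norm_num)
      (hR.not_dvd_index hp w5.2.2.2 w5.1 w5.2.1 w5.2.2.1 (m := 718848)
        (by rw [hcard]; norm_num) (by norm_num) (Tables.natCard_closure_le_square hp.pos ex ey e1))
  · obtain rfl := (Nat.prime_dvd_prime_iff_eq hp (by norm_num)).1 h
    exact not_dvd_card_ker_of_sq_not_dvd hτ hp (by rw [hcard]; norm_num)

end CfsgLib.TitsMult
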